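import Cfsg.Agent.Lib.Compute.SchurLin

/-!
# The multiplier of a quotient of a group with trivial multiplier
-/

set_option autoImplicit false

namespace Cfsg.Agent.Lib.Sporadic.Co1Mult

open Cfsg Cfsg.Agent.Lib.Compute.SchurLin
open scoped commutatorElement

variable {E Q Γ : Type} [Group E] [Group Q] [Group Γ]

/-- A group with a central subgroup, and with perfect quotient by it, has the perfect commutator subgroup. -/
theorem lift_of_triv [Finite E] [Finite Γ] (htriv : TrivMult E) (hE : commutator E = ⊤) (π : E →* Q) (σ : Γ →* Q)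
    (hσ : Function.Surjective σ) (hc : σ.ker ≤ Subgroup.center Γ) :
    ∃ τ : E →* Γ, ∀ g, σ (τ g) = π g := by
  classical
  -- the fibre product
  let F : Subgroup (Γ × E) := (σ.comp (MonoidHom.fst Γ E)).eqLocus (π.comp (MonoidHom.snd Γ E))
  have hF : ∀ f : ↥F, σ f.1.1 = π f.1.2 := fun f => f.2
  let p₂ : ↥F →* E := (MonoidHom.snd Γ E).comp F.subtype
  have hp₂ : Function.Surjective p₂ := by
    intro g
    obtain ⟨x, hx⟩ := hσ (π g)
    exact ⟨⟨(x, g), hx⟩, rfl⟩
  have hcen : ∀ z : ↥F, p₂ z = 1 → ∀ f : ↥F, z * f = f * z := by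
    intro z hz f
    have h1 : z.1.2 = 1 := hz
    have h2 : σ z.1.1 = 1 := by
      rw [hF z, h1, map_one]
    have h3 : z.1.1 ∈ Subgroup.center Γ := hc (MonoidHom.mem_ker.2 h2)
    apply Subtype.ext
    apply Prod.ext
    · exact ((Subgroup.mem_center_iff.1 h3) f.1.1).symm
    · show z.1.2 * f.1.2 = f.1.2 * z.1.2
      rw [h1, one_mul, mul_one]
  let D : Subgroup ↥F := commutator ↥F
  have hmap : D.map p₂ = ⊤ := by
    show (commutator ↥F).map p₂ = ⊤
    rw [commutator_def, Subgroup.map_commutator, Subgroup.map_top_of_surjective _ hp₂, ← commutator_def, hE]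
  let ρ : ↥D →* E := p₂.comp D.subtype
  have hρ : Function.Surjective ρ := by
    intro g
    have : g ∈ D.map p₂ := by rw [hmap]; trivial
    obtain ⟨d, hd, e⟩ := this
    exact ⟨⟨d, hd⟩, e⟩
  have hdec : ∀ f : ↥F, ∃ d ∈ D, ∃ z, p₂ z = 1 ∧ f = d * z := by
    intro f
    obtain ⟨d, hd⟩ := hρ (p₂ f)
    refine ⟨d.1, d.2, d.1⁻¹ * f, ?_, by group⟩
    rw [map_mul, map_inv]
    have : p₂ d.1 = p₂ f := hd
    rw [this, inv_mul_cancel]
  have hperf : commutator ↥D = ⊤ := by
    have hle : D ≤ (commutator ↥D).map D.subtype := by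
      show commutator ↥F ≤ _
      rw [commutator_def, Subgroup.commutator_le]
      rintro a - b -
      obtain ⟨d, hd, z, hz, rfl⟩ := hdec a
      obtain ⟨d', hd', z', hz', rfl⟩ := hdec b
      have e : ⁅d * z, d' * z'⁆ = ⁅d, d'⁆ := by
        have c1 : ∀ w, z * w = w * z := hcen z hz
        have c2 : ∀ w, z' * w = w * z' := hcen z' hz'
        have c1i : ∀ w, z⁻¹ * w = w * z⁻¹ := fun w => by
          have := c1 w
          calc z⁻¹ * w = z⁻¹ * (w * z) * z⁻¹ := by group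
            _ = z⁻¹ * (z * w) * z⁻¹ := by rw [c1 w]
            _ = w * z⁻¹ := by group
        have c2i : ∀ w, z'⁻¹ * w = w * z'⁻¹ := fun w => by
          calc z'⁻¹ * w = z'⁻¹ * (w * z') * z'⁻¹ := by group
            _ = z'⁻¹ * (z' * w) * z'⁻¹ := by rw [c2 w]
            _ = w * z'⁻¹ := by group
        rw [commutatorElement_def, commutatorElement_def]
        calc d * z * (d' * z') * (d * z)⁻¹ * (d' * z')⁻¹
            = d * (z * d') * z' * z⁻¹ * d⁻¹ * z'⁻¹ * d'⁻¹ := by group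
          _ = d * d' * (z * z') * z⁻¹ * d⁻¹ * z'⁻¹ * d'⁻¹ := by rw [c1 d']; group
          _ = d * d' * z' * (z * z⁻¹) * d⁻¹ * z'⁻¹ * d'⁻¹ := by rw [c1 z']; group
          _ = d * d' * (z' * d⁻¹) * z'⁻¹ * d'⁻¹ := by group
          _ = d * d' * d⁻¹ * (z' * z'⁻¹) * d'⁻¹ := by rw [c2 d⁻¹]; group
          _ = _ := by group
      rw [e]
      refine ⟨⁅(⟨d, hd⟩ : ↥D), (⟨d', hd'⟩ : ↥D)⁆, ?_, rfl⟩
      exact Subgroup.commutator_mem_commutator trivial trivial
    rw [eq_top_iff]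
    intro x _
    obtain ⟨y, hy, e⟩ := hle x.2
    have : y = x := Subtype.ext e
    rw [← this]
    exact hy
  have hstem : IsStemExtension ρ := by
    refine ⟨hρ, ?_, ?_⟩
    · intro x hx
      rw [Subgroup.mem_center_iff]
      intro y
      apply Subtype.ext
      have h := hcen x.1 hx y.1
      exact h.symm
    · rw [hperf]
      exact le_top
  have hinj := htriv ↥D ρ hstem
  let e' : ↥D ≃* E := MulEquiv.ofBijective ρ ⟨hinj, hρ⟩
  let p₁ : ↥D →* Γ := (MonoidHom.fst Γ E).comp (F.subtype.comp D.subtype)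
  refine ⟨p₁.comp e'.symm.toMonoidHom, ?_⟩
  intro g
  show σ (e'.symm g).1.1.1 = π g
  rw [hF (e'.symm g).1]
  have : ρ (e'.symm g) = g := e'.apply_symm_apply g
  have h2 : (e'.symm g).1.1.2 = g := this
  rw [h2]

/-- The multiplier of a quotient of a perfect group with trivial multiplier. -/
theorem hasSchur_of_cover {A : Type} [CommGroup A] [Finite E] [Finite Q] (π : E →* Q) (hπ : Function.Surjective π)
    (hker : π.ker ≤ Subgroup.center E) (hE : commutator E = ⊤) (htriv : TrivMult E) (e : π.ker ≃* A) :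
    HasSchurMultiplier Q A := by
  refine ⟨⟨E, inferInstance, inferInstance, π, ⟨hπ, hker, ?_⟩, ⟨e⟩⟩, ?_⟩
  · rw [hE]
    exact le_top
  intro Γ _ _ σ hstem
  obtain ⟨hσ, hc, hk⟩ := hstem
  obtain ⟨τ, hτ⟩ := lift_of_triv htriv hE π σ hσ hc
  -- the decomposition
  have hdec : ∀ x : Γ, ∃ g, ∃ z, σ z = 1 ∧ x = τ g * z := by
    intro x
    obtain ⟨g, hg⟩ := hπ (σ x)
    refine ⟨g, (τ g)⁻¹ * x, ?_, by group⟩
    rw [map_mul, map_inv, hτ, hg, inv_mul_cancel]
  have hcen : ∀ z : Γ, σ z = 1 → ∀ w, z * w = w * z := by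
    intro z hz w
    exact ((Subgroup.mem_center_iff.1 (hc (MonoidHom.mem_ker.2 hz))) w).symm
  -- the commutator subgroup lies in the image
  have hcomm : commutator Γ ≤ τ.range := by
    rw [commutator_def, Subgroup.commutator_le]
    rintro a - b -
    obtain ⟨g, z, hz, rfl⟩ := hdec a
    obtain ⟨g', z', hz', rfl⟩ := hdec b
    have e1 : ⁅τ g * z, τ g' * z'⁆ = τ ⁅g, g'⁆ := by
      have c1 := hcen z hz
      have c2 := hcen z' hz'
      have c1i : ∀ w, z⁻¹ * w = w * z⁻¹ := fun w => by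
        calc z⁻¹ * w = z⁻¹ * (w * z) * z⁻¹ := by group
          _ = z⁻¹ * (z * w) * z⁻¹ := by rw [c1 w]
          _ = w * z⁻¹ := by group
      rw [map_commutatorElement, commutatorElement_def, commutatorElement_def]
      set d := τ g
      set d' := τ g'
      calc d * z * (d' * z') * (d * z)⁻¹ * (d' * z')⁻¹
          = d * (z * d') * z' * z⁻¹ * d⁻¹ * z'⁻¹ * d'⁻¹ := by group
        _ = d * d' * (z * z') * z⁻¹ * d⁻¹ * z'⁻¹ * d'⁻¹ := by rw [c1 d']; group
        _ = d * d' * z' * (z * z⁻¹) * d⁻¹ * z'⁻¹ * d'⁻¹ := by rw [c1 z']; group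
        _ = d * d' * (z' * d⁻¹) * z'⁻¹ * d'⁻¹ := by group
        _ = d * d' * d⁻¹ * (z' * z'⁻¹) * d'⁻¹ := by rw [c2 d⁻¹]; group
        _ = _ := by group
    rw [e1]
    exact ⟨_, rfl⟩
  -- the kernel
  have hz : ∀ a : A, σ (τ ((e.symm a : π.ker) : E)) = 1 := by
    intro a
    rw [hτ]
    exact (e.symm a).2
  let φ : A →* σ.ker :=
    { toFun := fun a => ⟨τ ((e.symm a : π.ker) : E), MonoidHom.mem_ker.2 (hz a)⟩
      map_one' := by
        apply Subtype.ext
        simp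
      map_mul' := fun a b => by
        apply Subtype.ext
        simp }
  refine ⟨φ, ?_⟩
  rintro ⟨z, hz'⟩
  obtain ⟨g, hg⟩ := hcomm (hk hz')
  have hgk : g ∈ π.ker := by
    rw [MonoidHom.mem_ker, ← hτ, hg]
    exact hz'
  refine ⟨e ⟨g, hgk⟩, ?_⟩
  apply Subtype.ext
  show τ ((e.symm (e ⟨g, hgk⟩) : π.ker) : E) = z
  rw [e.symm_apply_apply]
  exact hg

end Cfsg.Agent.Lib.Sporadic.Co1Mult
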